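import Mathlib
import Cfsg.Agent.TcChain36.Rep78.Tab

set_option autoImplicit false
set_option maxRecDepth 1000000
set_option linter.all false

namespace Cfsg.Agent.TcChain36.Rep78

open Cfsg.Agent.Lib.MatPack36

set_option Elab.async false in
theorem cox2 : ∀ y ∈ allG, evF 13 78 Ms (((FreeGroup.of Cfsg.Spor.Fi22.Gen.c * FreeGroup.of y) ^ Cfsg.Spor.coxLabel Cfsg.Spor.Fi22.edges Cfsg.Spor.Fi22.Gen.c y).toWord.map idx) (idL 78) = idL 78 := by
  decide +kernel

end Cfsg.Agent.TcChain36.Rep78
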