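import Mathlib
import Cfsg.Agent.TcChain36.Rep78.Tab
import Cfsg.Agent.TcChain36.Rep78.Cox0
import Cfsg.Agent.TcChain36.Rep78.Cox1
import Cfsg.Agent.TcChain36.Rep78.Cox2
import Cfsg.Agent.TcChain36.Rep78.Cox3
import Cfsg.Agent.TcChain36.Rep78.Cox4
import Cfsg.Agent.TcChain36.Rep78.Cox5
import Cfsg.Agent.TcChain36.Rep78.Cox6
import Cfsg.Agent.TcChain36.Rep78.Cox7
import Cfsg.Agent.TcChain36.Rep78.Cox8
import Cfsg.Agent.TcChain36.Rep78.Extra
import Cfsg.Agent.TcChain36.Fi22.Main
import Cfsg.Agent.Lib.OutTreeE36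

set_option autoImplicit false
set_option maxRecDepth 1000000
set_option linter.all false

namespace Cfsg.Agent.TcChain36.Rep78

open Cfsg.Agent.Lib.MatPack36 Cfsg.Agent.Lib.OutTree36

theorem h13 : (1 : ℕ) < 13 := by norm_num
theorem h13' : (13 : ℕ) ≤ 65536 := by norm_num
theorem hbd : 78 * (13 - 1) * (13 - 1) < 65536 := by norm_num

theorem vmMs (i : ℕ) : VM 78 13 (Ms i) := by
  by_cases hi : i < 9
  · have h := hVal i hi
    exact ⟨h.1, fun R hR => vr_iff (by norm_num) h13' (h.2 R hR)⟩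
  · have : Ms i = idL 78 := by
      unfold Ms
      rw [List.getD_eq_default _ _ (by simp; omega)]
    rw [this]
    exact vm_idL h13

theorem invMs (i : ℕ) : toM 78 13 (Ms i) * toM 78 13 (Ms i) = 1 := by
  by_cases hi : i < 9
  · rw [← toM_mmul (by norm_num) h13' hbd (vmMs i) (vmMs i), hInv i hi, toM_idL]
  · have : Ms i = idL 78 := by
      unfold Ms
      rw [List.getD_eq_default _ _ (by simp; omega)]
    rw [this, toM_idL, one_mul]

/-- The letters in the general linear group. -/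
def U (i : ℕ) : GL (Fin 78) (ZMod 13) := unitOf (Ms i) (invMs i)

theorem U_inv (i : ℕ) : (U i)⁻¹ = U i := by
  apply Units.ext
  rfl

/-- The images of the letters. -/
def sf (x : Cfsg.Spor.Fi22.Gen) : GL (Fin 78) (ZMod 13) := U (idx (x, true))

theorem hidx (x : Cfsg.Spor.Fi22.Gen) : idx (x, false) = idx (x, true) := by cases x <;> rfl

theorem word_ok {w : List ℕ} (h : evF 13 78 Ms w (idL 78) = idL 78) : evL U w = 1 :=
  word_one h13 h13' hbd vmMs U (fun _ => rfl) h

theorem rel_ok : ∀ r ∈ (Cfsg.Spor.coxRelators Cfsg.Spor.Fi22.edges ∪ {r | r ∈ Cfsg.Spor.Fi22.extra}),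
    FreeGroup.lift sf r = 1 := by
  intro r hr
  rw [lift_eq_evL sf U idx (fun x => rfl) (fun x => by rw [hidx, ← U_inv]; rfl)]
  apply word_ok
  rcases hr with ⟨x, -, y, -, rfl⟩ | hr
  · cases x
    · exact cox0 y (mem_allG y)
    · exact cox1 y (mem_allG y)
    · exact cox2 y (mem_allG y)
    · exact cox3 y (mem_allG y)
    · exact cox4 y (mem_allG y)
    · exact cox5 y (mem_allG y)
    · exact cox6 y (mem_allG y)
    · exact cox7 y (mem_allG y)
    · exact cox8 y (mem_allG y)
  · exact extra0 r hr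

/-- The representation. -/
noncomputable def rho : Cfsg.Spor.Fi22 →* GL (Fin 78) (ZMod 13) := PresentedGroup.toGroup rel_ok

instance simpleFi22 : IsSimpleGroup Cfsg.Spor.Fi22 := Cfsg.Agent.TcChain36.Fi22.main.1

set_option Elab.async false in
theorem ne_id : Ms 0 ≠ idL 78 := by decide +kernel

theorem toM_inj_row : toM 78 13 (Ms 0) ≠ 1 := by
  intro h
  apply ne_id
  have hv0 := vmMs 0
  have hvI : VM 78 13 (idL 78) := vm_idL h13
  have key : ∀ (i : ℕ), i < 78 → (Ms 0).getD i 0 = (idL 78).getD i 0 := by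
    intro i hi
    have e1 := (getD_mem_vr hv0 hi).2
    have e2 := (getD_mem_vr hvI hi).2
    rw [e1, e2]
    apply pk_congr
    intro j hj
    have h1 := (getD_mem_vr hv0 hi).1 j hj
    have h2 := (getD_mem_vr hvI hi).1 j hj
    have h3 : toM 78 13 (Ms 0) ⟨i, hi⟩ ⟨j, hj⟩ = toM 78 13 (idL 78) ⟨i, hi⟩ ⟨j, hj⟩ := by
      rw [h, toM_idL]
    have h4 := (ZMod.natCast_eq_natCast_iff' _ _ 13).mp h3
    rwa [Nat.mod_eq_of_lt h1, Nat.mod_eq_of_lt h2] at h4
  apply List.ext_getElem
  · rw [hv0.1, hvI.1]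
  · intro i h1 h2
    have hi : i < 78 := by rwa [hv0.1] at h1
    have := key i hi
    rwa [List.getD_eq_getElem _ _ h1, List.getD_eq_getElem _ _ h2] at this

theorem rho_inj : Function.Injective rho := by
  rw [injective_iff_map_eq_one]
  have hN : rho.ker.Normal := inferInstance
  rcases hN.eq_bot_or_eq_top with h | h
  · intro a ha
    have : a ∈ rho.ker := ha
    rw [h] at this
    simpa using this
  · exfalso
    have h1 : PresentedGroup.of Cfsg.Spor.Fi22.Gen.a ∈ rho.ker := by rw [h]; trivial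
    have h2 : rho (PresentedGroup.of Cfsg.Spor.Fi22.Gen.a) = 1 := h1
    have h3 : rho (PresentedGroup.of Cfsg.Spor.Fi22.Gen.a) = U 0 := by
      unfold rho
      rw [PresentedGroup.toGroup.of]
      rfl
    rw [h3] at h2
    apply toM_inj_row
    have := congrArg (fun u : GL (Fin 78) (ZMod 13) => (u : Matrix (Fin 78) (Fin 78) (ZMod 13))) h2
    exact this

end Cfsg.Agent.TcChain36.Rep78
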